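import Cfsg.Agent.Chars.Fi22O7.P8.Data

/-!
# Checking the facts
-/

set_option autoImplicit false
set_option maxRecDepth 20000

namespace Cfsg.Agent.Chars.Fi22O7.P8

open Cfsg.Agent.Screen.CosetEnum

set_option Elab.async false

theorem fcheck320 : blocks tbl.toCert 80 320 = true := by decide +kernel

theorem fcheck400 : blocks tbl.toCert 80 400 = true := by decide +kernel

theorem fcheck480 : blocks tbl.toCert 80 480 = true := by decide +kernel

theorem fcheck560 : blocks tbl.toCert 80 560 = true := by decide +kernel


end Cfsg.Agent.Chars.Fi22O7.P8
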