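import Cfsg.Agent.Chars.Fi22O7.P8.Data

/-!
# Checking the rows
-/

set_option autoImplicit false
set_option maxRecDepth 20000

namespace Cfsg.Agent.Chars.Fi22O7.P8

open Cfsg.Agent.Screen.CosetEnum

set_option Elab.async false

theorem rcheck0 : tbl.rows 350 0 = true := by decide +kernel

theorem rcheck350 : tbl.rows 350 350 = true := by decide +kernel

theorem rcheck700 : tbl.rows 350 700 = true := by decide +kernel

theorem rcheck1050 : tbl.rows 350 1050 = true := by decide +kernel

theorem rcheck1400 : tbl.rows 350 1400 = true := by decide +kernel


end Cfsg.Agent.Chars.Fi22O7.P8
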