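import Cfsg.Agent.Chars.Fi22O7.P8.Data

/-!
# Checking the rows
-/

set_option autoImplicit false
set_option maxRecDepth 20000

namespace Cfsg.Agent.Chars.Fi22O7.P8

open Cfsg.Agent.Screen.CosetEnum

set_option Elab.async false

theorem rcheck1750 : tbl.rows 350 1750 = true := by decide +kernel

theorem rcheck2100 : tbl.rows 350 2100 = true := by decide +kernel

theorem rcheck2450 : tbl.rows 350 2450 = true := by decide +kernel

theorem rcheck2800 : tbl.rows 350 2800 = true := by decide +kernel

theorem rcheck3150 : tbl.rows 9 3150 = true := by decide +kernel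


end Cfsg.Agent.Chars.Fi22O7.P8
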