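import Cfsg.Agent.Chars.Fi22O7.P8.Data
import Cfsg.Agent.Chars.Fi22O7.P8.FCheck0
import Cfsg.Agent.Chars.Fi22O7.P8.FCheck1
import Cfsg.Agent.Chars.Fi22O7.P8.FCheck2
import Cfsg.Agent.Chars.Fi22O7.P8.FCheck3
import Cfsg.Agent.Chars.Fi22O7.P8.RCheck0
import Cfsg.Agent.Chars.Fi22O7.P8.RCheck1

/-!
# The table is checked
-/

set_option autoImplicit false
set_option maxRecDepth 20000

namespace Cfsg.Agent.Chars.Fi22O7.P8

open Cfsg.Agent.Screen.CosetEnum

theorem checked : tbl.Checked where
  facts b hb := by
    have hb' : b < 1241 := by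
      have : tbl.toCert.nf = 29781 := rfl
      omega
    by_cases h0 : b < 80
    · exact blocks_spec _ _ _ fcheck0 b (by omega) h0
    by_cases h1 : b < 160
    · exact blocks_spec _ _ _ fcheck80 b (by omega) h1
    by_cases h2 : b < 240
    · exact blocks_spec _ _ _ fcheck160 b (by omega) h2
    by_cases h3 : b < 320
    · exact blocks_spec _ _ _ fcheck240 b (by omega) h3
    by_cases h4 : b < 400
    · exact blocks_spec _ _ _ fcheck320 b (by omega) h4
    by_cases h5 : b < 480
    · exact blocks_spec _ _ _ fcheck400 b (by omega) h5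
    by_cases h6 : b < 560
    · exact blocks_spec _ _ _ fcheck480 b (by omega) h6
    by_cases h7 : b < 640
    · exact blocks_spec _ _ _ fcheck560 b (by omega) h7
    by_cases h8 : b < 720
    · exact blocks_spec _ _ _ fcheck640 b (by omega) h8
    by_cases h9 : b < 800
    · exact blocks_spec _ _ _ fcheck720 b (by omega) h9
    by_cases h10 : b < 880
    · exact blocks_spec _ _ _ fcheck800 b (by omega) h10
    by_cases h11 : b < 960
    · exact blocks_spec _ _ _ fcheck880 b (by omega) h11
    by_cases h12 : b < 1040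
    · exact blocks_spec _ _ _ fcheck960 b (by omega) h12
    by_cases h13 : b < 1120
    · exact blocks_spec _ _ _ fcheck1040 b (by omega) h13
    by_cases h14 : b < 1200
    · exact blocks_spec _ _ _ fcheck1120 b (by omega) h14
    by_cases h15 : b < 1241
    · exact blocks_spec _ _ _ fcheck1200 b (by omega) h15
    omega
  rows c hc := by
    have hc' : c < 3159 := hc
    by_cases h0 : c < 350
    · exact Tab.rows_spec _ _ rcheck0 c (by omega) h0 hc
    by_cases h1 : c < 700
    · exact Tab.rows_spec _ _ rcheck350 c (by omega) h1 hc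
    by_cases h2 : c < 1050
    · exact Tab.rows_spec _ _ rcheck700 c (by omega) h2 hc
    by_cases h3 : c < 1400
    · exact Tab.rows_spec _ _ rcheck1050 c (by omega) h3 hc
    by_cases h4 : c < 1750
    · exact Tab.rows_spec _ _ rcheck1400 c (by omega) h4 hc
    by_cases h5 : c < 2100
    · exact Tab.rows_spec _ _ rcheck1750 c (by omega) h5 hc
    by_cases h6 : c < 2450
    · exact Tab.rows_spec _ _ rcheck2100 c (by omega) h6 hc
    by_cases h7 : c < 2800
    · exact Tab.rows_spec _ _ rcheck2450 c (by omega) h7 hc
    by_cases h8 : c < 3150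
    · exact Tab.rows_spec _ _ rcheck2800 c (by omega) h8 hc
    by_cases h9 : c < 3159
    · exact Tab.rows_spec _ _ rcheck3150 c (by omega) h9 hc
    omega
  base := by decide +kernel

end Cfsg.Agent.Chars.Fi22O7.P8
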